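-- Team project OTSP (S5973, helper99), cut of [PAIRS], package [ANISO] (helper87):
-- a maximal invariant totally singular `L ≤ N = movSp y` and an invariant nondegenerate
-- complement `R'` of `L` in `L^⊥ ∩ N` without nonzero invariant totally singular subspaces.
import Mathlib
import Cfsg.Agent.Lib.Helper99.OTSP.PairsDefs
import Cfsg.Agent.Lib.Helper46.OHyp.Maschke
import Cfsg.Agent.Lib.Helper87.OPar.UTools

set_option autoImplicit false
open scoped MatrixGroups
open Matrix

namespace Cfsg.Agent.Lib.Helper87.OTSP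

open Cfsg.Agent.Lib.Helper23.OHyp Cfsg.Agent.Lib.Helper99.OTSP Cfsg.Agent.Lib.Helper87.OPar
open Module

universe u

/-- [ANISO] from [SPLIT] (Maschke: `Helper46.OHyp.pkgMaschke`). -/
theorem pkgAniso_of (hSp : Cfsg.Agent.Lib.Helper99.OTSP.PkgSplit.{u}) :
    Cfsg.Agent.Lib.Helper99.OTSP.PkgAniso.{u} := by
  intro F _ _ ι _ _ Q r y hstd
  classical
  obtain ⟨hPerp, hCompl, hNinv, -, -, -⟩ := hSp F ι Q r y hstd
  have hQ := hstd.nondeg
  have hrF : (r : F) ≠ 0 := by
    intro h0
    obtain ⟨p, hp⟩ := CharP.exists F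
    haveI : Fact p.Prime := ⟨CharP.char_is_prime F p⟩
    have h1 : p ∣ r := (CharP.cast_eq_zero_iff F p r).1 h0
    have h2 : p = r := (Nat.prime_dvd_prime_iff_eq Fact.out hstd.prime).1 h1
    obtain ⟨f, -, hf⟩ := FiniteField.card F p
    apply hstd.ndvd
    rw [hf, ← h2]
    exact dvd_pow_self p (PNat.ne_zero f)
  let b : LinearMap.BilinForm F (ι → F) :=
    LinearMap.mk₂ F (QuadraticMap.polar Q) hQ.polar_bilinear.add_left
      (fun c m n => hQ.polar_bilinear.smul_left c m n) hQ.polar_bilinear.add_right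
      (fun c m n => hQ.polar_bilinear.smul_right c m n)
  have hb : ∀ u v, b u v = QuadraticMap.polar Q u v := fun u v => rfl
  have hbsym : ∀ u v, b u v = b v u := fun u v => by
    rw [hb, hb, QuadraticMap.polar_comm]
  have hkerb : LinearMap.ker b = ⊥ := by
    rw [LinearMap.ker_eq_bot']
    intro v hv
    by_contra hne
    obtain ⟨-, ⟨x, hx⟩⟩ := hQ.nondegenerate v hne
    apply hx
    have h := congrArg (fun f : (ι → F) →ₗ[F] F => f x) hv
    exact h
  have horth : ∀ X : Submodule F (ι → F),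
      finrank F X + finrank F (b.orthogonal X) = finrank F (ι → F) :=
    fun X => finrank_add_orth b hkerb X
  have hby : ∀ u v, b (y *ᵥ u) (y *ᵥ v) = b u v := by
    intro u v
    rw [hb, hb]
    unfold QuadraticMap.polar
    rw [← Matrix.mulVec_add, hstd.isom, hstd.isom, hstd.isom]
  have hinv_iff : ∀ X : Submodule F (ι → F), Inv y X ↔ ∀ u ∈ X, y *ᵥ u ∈ X := by
    intro X
    unfold Cfsg.Agent.Lib.Helper23.OHyp.Inv
    rw [Submodule.map_le_iff_le_comap]
    constructor
    · intro h u hu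
      have h1 := h hu
      rwa [Submodule.mem_comap, Matrix.toLin'_apply] at h1
    · intro h u hu
      rw [Submodule.mem_comap, Matrix.toLin'_apply]
      exact h u hu
  have hyinv : ∀ v, y *ᵥ ((y ^ (r - 1)) *ᵥ v) = v := by
    intro v
    rw [Matrix.mulVec_mulVec, ← pow_succ', Nat.sub_add_cancel hstd.prime.one_le, hstd.pow,
      Matrix.one_mulVec]
  have hpow_inv : ∀ X : Submodule F (ι → F), (∀ u ∈ X, y *ᵥ u ∈ X) →
      ∀ k : ℕ, ∀ u ∈ X, (y ^ k) *ᵥ u ∈ X := by
    intro X hX k
    induction k with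
    | zero =>
      intro u hu
      simpa using hu
    | succ k ih =>
      intro u hu
      rw [pow_succ', ← Matrix.mulVec_mulVec]
      exact hX _ (ih u hu)
  have horth_inv : ∀ X : Submodule F (ι → F), (∀ u ∈ X, y *ᵥ u ∈ X) →
      ∀ w ∈ b.orthogonal X, y *ᵥ w ∈ b.orthogonal X := by
    intro X hX w hw x hx
    show b x (y *ᵥ w) = 0
    rw [← hyinv x, hby]
    exact hw _ (hpow_inv X hX (r - 1) x hx)
  have hCinv : ∀ u ∈ fixSp y, y *ᵥ u ∈ fixSp y := by
    intro u hu
    have h1 : y *ᵥ u = u := by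
      have h2 : (Matrix.toLin' y - 1) u = 0 := hu
      rw [LinearMap.sub_apply, Matrix.toLin'_apply, Module.End.one_apply, sub_eq_zero] at h2
      exact h2
    rw [h1]
    exact hu
  have hCNdim : finrank F (fixSp y) + finrank F (movSp y) = finrank F (ι → F) :=
    Submodule.finrank_add_eq_of_isCompl hCompl
  have hN_eq : movSp y = b.orthogonal (fixSp y) := by
    apply Submodule.eq_of_le_of_finrank_eq
    · intro w hw c hc
      show b c w = 0
      rw [hb]
      exact hPerp c hc w hw
    · have h1 := horth (fixSp y)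
      omega
  have key : ∀ X : Submodule F (ι → F), X ≤ movSp y →
      b.orthogonal (X ⊔ fixSp y) ≤ movSp y ∧
      finrank F X + finrank F (b.orthogonal (X ⊔ fixSp y)) = finrank F (movSp y) := by
    intro X hX
    constructor
    · have h1 : b.orthogonal (X ⊔ fixSp y) ≤ b.orthogonal (fixSp y) :=
        LinearMap.BilinForm.orthogonal_le le_sup_right
      rw [← hN_eq] at h1
      exact h1
    · have h1 := horth (X ⊔ fixSp y)
      have h2 := Submodule.finrank_sup_add_finrank_inf_eq X (fixSp y)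
      have h3 : X ⊓ fixSp y = ⊥ := by
        rw [eq_bot_iff]
        intro x hx
        have h4 : x ∈ fixSp y ⊓ movSp y := ⟨hx.2, hX hx.1⟩
        rw [hCompl.inf_eq_bot] at h4
        exact h4
      rw [h3, finrank_bot, add_zero] at h2
      omega
  have hts_pol : ∀ (X : Submodule F (ι → F)), (∀ w ∈ X, Q w = 0) →
      ∀ u ∈ X, ∀ v ∈ X, b u v = 0 := by
    intro X hX u hu v hv
    rw [hb]
    unfold QuadraticMap.polar
    rw [hX _ (X.add_mem hu hv), hX u hu, hX v hv]
    ring
  have hQ0 : Q 0 = 0 := by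
    have h := hQ.smul 0 0
    simpa using h
  -- a maximal invariant totally singular subspace of `N`
  let P : ℕ → Prop := fun k => ∃ L : Submodule F (ι → F), L ≤ movSp y ∧
    (∀ u ∈ L, y *ᵥ u ∈ L) ∧ (∀ w ∈ L, Q w = 0) ∧ finrank F L = k
  have hP0 : P 0 := by
    refine ⟨⊥, bot_le, ?_, ?_, finrank_bot F (ι → F)⟩
    · intro u hu
      rw [Submodule.mem_bot] at hu
      rw [hu, Matrix.mulVec_zero]
      exact Submodule.zero_mem _
    · intro w hw
      rw [Submodule.mem_bot] at hw
      rw [hw]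
      exact hQ0
  have hPle : ∀ k, P k → k ≤ finrank F (movSp y) := by
    rintro k ⟨L, hLN, -, -, rfl⟩
    exact Submodule.finrank_mono hLN
  obtain ⟨L, hLN, hLinv, hLts, hLk⟩ : P (Nat.findGreatest P (finrank F (movSp y))) :=
    Nat.findGreatest_spec (Nat.zero_le _) hP0
  have hmax : ∀ k, P k → k ≤ finrank F L := by
    intro k hk
    rw [hLk]
    exact Nat.le_findGreatest (hPle k hk) hk
  obtain ⟨hRN, hRdim⟩ := key L hLN
  have hLR : L ≤ b.orthogonal (L ⊔ fixSp y) := by
    intro l hl x hx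
    obtain ⟨l', hl', c, hc, rfl⟩ := Submodule.mem_sup.1 hx
    show b (l' + c) l = 0
    rw [map_add, LinearMap.add_apply, hts_pol L hLts l' hl' l hl, zero_add, hb]
    exact hPerp c hc l (hLN hl)
  have hRL : b.orthogonal (L ⊔ fixSp y) ≤ b.orthogonal L :=
    LinearMap.BilinForm.orthogonal_le le_sup_left
  have hRinv : ∀ u ∈ b.orthogonal (L ⊔ fixSp y), y *ᵥ u ∈ b.orthogonal (L ⊔ fixSp y) := by
    apply horth_inv
    intro u hu
    obtain ⟨l, hl, c, hc, rfl⟩ := Submodule.mem_sup.1 hu
    rw [Matrix.mulVec_add]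
    exact Submodule.add_mem _ (Submodule.mem_sup_left (hLinv l hl))
      (Submodule.mem_sup_right (hCinv c hc))
  obtain ⟨R', hR'R, hR'inv, hLR', hsup⟩ := Cfsg.Agent.Lib.Helper46.OHyp.pkgMaschke F ι r y hrF
    hstd.pow (b.orthogonal (L ⊔ fixSp y)) L hLR ((hinv_iff _).2 hRinv) ((hinv_iff L).2 hLinv)
  have hdim2 : finrank F (b.orthogonal (L ⊔ fixSp y)) = finrank F L + finrank F R' := by
    have h1 := Submodule.finrank_sup_add_finrank_inf_eq L R'
    rw [hsup, hLR', finrank_bot, add_zero] at h1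
    exact h1
  obtain ⟨-, hRdim2⟩ := key (b.orthogonal (L ⊔ fixSp y)) hRN
  have hL_eq : L = b.orthogonal (b.orthogonal (L ⊔ fixSp y) ⊔ fixSp y) := by
    apply Submodule.eq_of_le_of_finrank_eq
    · intro l hl x hx
      obtain ⟨ρ, hρ, c, hc, rfl⟩ := Submodule.mem_sup.1 hx
      show b (ρ + c) l = 0
      rw [map_add, LinearMap.add_apply, hbsym ρ l, hRL hρ l hl, zero_add, hb]
      exact hPerp c hc l (hLN hl)
    · omega
  refine ⟨L, R', hLN, (hinv_iff L).2 hLinv, hLts, le_trans hR'R hRN, hR'inv, ?_, by omega, ?_⟩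
  · have hrad : ∀ w ∈ R', (∀ x ∈ R', b x w = 0) → w = 0 := by
      intro w hw hall
      have hwL : w ∈ L := by
        rw [hL_eq]
        intro x hx
        obtain ⟨ρ, hρ, c, hc, rfl⟩ := Submodule.mem_sup.1 hx
        show b (ρ + c) w = 0
        rw [map_add, LinearMap.add_apply]
        have h1 : b ρ w = 0 := by
          rw [← hsup] at hρ
          obtain ⟨l, hl, ρ', hρ', rfl⟩ := Submodule.mem_sup.1 hρ
          rw [map_add, LinearMap.add_apply, hRL (hR'R hw) l hl, hall ρ' hρ', add_zero]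
        rw [h1, zero_add, hb]
        exact hPerp c hc w (hRN (hR'R hw))
      have h2 : w ∈ L ⊓ R' := ⟨hwL, hw⟩
      rw [hLR'] at h2
      exact h2
    intro w hw hw0
    have h1 : ∃ x ∈ R', b x w ≠ 0 := by
      by_contra hcon
      push Not at hcon
      exact hw0 (hrad w hw hcon)
    obtain ⟨x, hx, hxw⟩ := h1
    refine ⟨⟨x, hx, hxw⟩, ⟨x, hx, ?_⟩⟩
    rw [← hb, hbsym]
    exact hxw
  · intro T hTR' hTinv hTts
    have hTinv' := (hinv_iff T).1 hTinv
    have hP : P (finrank F (L ⊔ T : Submodule F (ι → F))) := by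
      refine ⟨L ⊔ T, sup_le hLN (le_trans hTR' (le_trans hR'R hRN)), ?_, ?_, rfl⟩
      · intro u hu
        obtain ⟨l, hl, t, ht, rfl⟩ := Submodule.mem_sup.1 hu
        rw [Matrix.mulVec_add]
        exact Submodule.add_mem _ (Submodule.mem_sup_left (hLinv l hl))
          (Submodule.mem_sup_right (hTinv' t ht))
      · intro w hw
        obtain ⟨l, hl, t, ht, rfl⟩ := Submodule.mem_sup.1 hw
        have h1 : b l t = 0 := hRL (hR'R (hTR' ht)) l hl
        rw [hb] at h1
        unfold QuadraticMap.polar at h1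
        rw [hLts l hl, hTts t ht] at h1
        linear_combination h1
    have h1 := hmax _ hP
    have h2 := Submodule.finrank_sup_add_finrank_inf_eq L T
    have h3 : L ⊓ T = ⊥ := by
      rw [eq_bot_iff]
      exact le_trans (inf_le_inf_left L hTR') (le_of_eq hLR')
    rw [h3, finrank_bot, add_zero] at h2
    have h4 : finrank F T = 0 := by omega
    exact Submodule.finrank_eq_zero.1 h4

end Cfsg.Agent.Lib.Helper87.OTSP
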