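-- Team project OTSP (S5973, helper99), package [EXODD] (helper87):
-- `i` odd: isometries of the plus form of order dividing `r` with `dim movSp = 2 i j`.
import Mathlib
import Cfsg.Agent.Lib.Helper99.OTSP.Defs
import Cfsg.Agent.Lib.Helper12.OHyp.EBlkOdd
import Cfsg.Agent.Lib.Helper87.OPar.Exe0

set_option autoImplicit false
open scoped MatrixGroups
open Matrix

namespace Cfsg.Agent.Lib.Helper87.OTSP

open Cfsg.Agent.Lib.Helper23.OHyp Cfsg.Agent.Lib.Helper99.OTSP Cfsg.Agent.Lib.Helper12.OHyp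
open Module

universe u

/-- The fixed vectors of `A ⊕ 1` (reindexed to `Fin (n + c)`) when `A - 1` is invertible. -/
theorem fix_blk {F : Type u} [Field F] (n c : ℕ) (A : Matrix (Fin n) (Fin n) F)
    (hA : (A - 1).det ≠ 0) (u : Fin (n + c) → F) :
    (Matrix.reindexAlgEquiv F F finSumFinEquiv
      (Matrix.fromBlocks A 0 0 (1 : Matrix (Fin c) (Fin c) F))) *ᵥ u = u ↔
      ∀ a : Fin n, u (Fin.castAdd c a) = 0 := by
  have h1 : (Matrix.reindexAlgEquiv F F finSumFinEquiv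
      (Matrix.fromBlocks A 0 0 (1 : Matrix (Fin c) (Fin c) F))) *ᵥ u =
      ((Matrix.fromBlocks A 0 0 (1 : Matrix (Fin c) (Fin c) F)) *ᵥ (u ∘ finSumFinEquiv)) ∘
        finSumFinEquiv.symm := by
    rw [Matrix.reindexAlgEquiv_apply, Matrix.reindex_apply, Matrix.submatrix_mulVec_equiv]
    rfl
  have h2 : u ∘ (finSumFinEquiv : Fin n ⊕ Fin c ≃ Fin (n + c)) =
      Sum.elim (fun a => u (Fin.castAdd c a)) (fun b => u (Fin.natAdd n b)) := by
    funext s
    rcases s with a | b <;> simp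
  have h3 : (Matrix.fromBlocks A 0 0 (1 : Matrix (Fin c) (Fin c) F)) *ᵥ (u ∘ finSumFinEquiv) =
      Sum.elim (A *ᵥ (fun a => u (Fin.castAdd c a))) (fun b => u (Fin.natAdd n b)) := by
    rw [h2, Matrix.fromBlocks_mulVec]
    simp
  rw [h1, h3]
  constructor
  · intro h
    have h4 : A *ᵥ (fun a => u (Fin.castAdd c a)) = fun a => u (Fin.castAdd c a) := by
      funext a
      have h5 := congrFun h (Fin.castAdd c a)
      simpa using h5
    have h5 : (A - 1) *ᵥ (fun a => u (Fin.castAdd c a)) = 0 := by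
      rw [Matrix.sub_mulVec, h4, Matrix.one_mulVec, sub_self]
    have h6 := Matrix.eq_zero_of_mulVec_eq_zero hA h5
    intro a
    exact congrFun h6 a
  · intro h
    have h4 : (fun a => u (Fin.castAdd c a)) = 0 := funext h
    rw [h4, Matrix.mulVec_zero]
    funext x
    obtain ⟨s, rfl⟩ := (finSumFinEquiv : Fin n ⊕ Fin c ≃ Fin (n + c)).surjective x
    rcases s with a | b
    · simp [h a]
    · simp

/-- Powers of a block diagonal matrix (two index types). -/
theorem fromBlocks_diag_pow' {F : Type u} [Field F] {n m : Type} [Fintype n] [DecidableEq n]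
    [Fintype m] [DecidableEq m] (A : Matrix n n F) (D : Matrix m m F) (k : ℕ) :
    (Matrix.fromBlocks A 0 0 D) ^ k = Matrix.fromBlocks (A ^ k) 0 0 (D ^ k) := by
  induction k with
  | zero => simp [Matrix.fromBlocks_one]
  | succ k ih =>
    rw [pow_succ, ih, Matrix.fromBlocks_multiply, pow_succ, pow_succ]
    simp

/-- [EXODD] -/
theorem pkgExOdd : PkgExOdd.{u} := by
  intro F _ _ d r j hr hr2 hrq _hodd _hj hd
  classical
  obtain ⟨c, rfl⟩ := Nat.exists_eq_add_of_le hd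
  obtain ⟨M0, hM0, hdet0⟩ := exists_block_GL (F := F) r hr hrq
  obtain ⟨A, hA1, hA2⟩ := Cfsg.Agent.Lib.Helper87.OPar.exists_blockSum
    (ordI (Fintype.card F) r) j r
    (M0 : Matrix (Fin (ordI (Fintype.card F) r)) (Fin (ordI (Fintype.card F) r)) F)
    (by rw [← Units.val_pow_eq_pow_val, hM0, Units.val_one]) hdet0
  generalize ordI (Fintype.card F) r * j = n at A hA1 hA2 ⊢
  have hB : (Matrix.fromBlocks A 0 0 (1 : Matrix (Fin c) (Fin c) F)) ^ r = 1 := by
    rw [fromBlocks_diag_pow', hA1, one_pow, Matrix.fromBlocks_one]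
  have hMm : (Matrix.reindexAlgEquiv F F finSumFinEquiv
      (Matrix.fromBlocks A 0 0 (1 : Matrix (Fin c) (Fin c) F))) ^ r = 1 := by
    rw [← map_pow, hB, map_one]
  set Mm : Matrix (Fin (n + c)) (Fin (n + c)) F := Matrix.reindexAlgEquiv F F finSumFinEquiv
      (Matrix.fromBlocks A 0 0 (1 : Matrix (Fin c) (Fin c) F)) with hMmdef
  let M : GL (Fin (n + c)) F := Units.ofPowEqOne Mm r hMm hr.ne_zero
  have hMval : (M : Matrix (Fin (n + c)) (Fin (n + c)) F) = Mm := rfl
  have hMr : M ^ r = 1 := Units.pow_ofPowEqOne hMm hr.ne_zero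
  have hinv1 : ((M⁻¹ : GL (Fin (n + c)) F) : Matrix (Fin (n + c)) (Fin (n + c)) F) * Mm = 1 := by
    rw [← hMval, ← Units.val_mul, inv_mul_cancel, Units.val_one]
  have hinv2 : Mm * ((M⁻¹ : GL (Fin (n + c)) F) : Matrix (Fin (n + c)) (Fin (n + c)) F) = 1 := by
    rw [← hMval, ← Units.val_mul, mul_inv_cancel, Units.val_one]
  have hMT : Mmᵀ = Matrix.reindexAlgEquiv F F finSumFinEquiv
      (Matrix.fromBlocks Aᵀ 0 0 (1 : Matrix (Fin c) (Fin c) F)) := by
    rw [hMmdef, Matrix.reindexAlgEquiv_apply, Matrix.reindexAlgEquiv_apply,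
      Matrix.transpose_reindex, Matrix.fromBlocks_transpose]
    simp
  have hAT : (Aᵀ - 1).det ≠ 0 := by
    have h1 : Aᵀ - 1 = (A - 1)ᵀ := by simp
    rw [h1, Matrix.det_transpose]
    exact hA2
  refine ⟨hypGL M, hypGL_mem M, hypGL_pow M r hMr, ?_⟩
  let ρ : (Fin (n + c) ⊕ Fin (n + c) → F) →ₗ[F] (Fin n ⊕ Fin n → F) :=
    LinearMap.funLeft F F (Sum.map (Fin.castAdd c) (Fin.castAdd c))
  have hρsurj : Function.Surjective ρ :=
    LinearMap.funLeft_surjective_of_injective F F _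
      (Sum.map_injective.2 ⟨Fin.castAdd_injective n c, Fin.castAdd_injective n c⟩)
  have hfix : fixSp ((hypGL M : GL (Fin (n + c) ⊕ Fin (n + c)) F) :
      Matrix (Fin (n + c) ⊕ Fin (n + c)) (Fin (n + c) ⊕ Fin (n + c)) F) = LinearMap.ker ρ := by
    ext v
    have hv : v = Sum.elim (v ∘ Sum.inl) (v ∘ Sum.inr) := (Sum.elim_comp_inl_inr v).symm
    have hy : ((hypGL M : GL (Fin (n + c) ⊕ Fin (n + c)) F) :
        Matrix (Fin (n + c) ⊕ Fin (n + c)) (Fin (n + c) ⊕ Fin (n + c)) F) *ᵥ v =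
        Sum.elim (Mm *ᵥ (v ∘ Sum.inl))
          (((M⁻¹ : GL (Fin (n + c)) F) : Matrix (Fin (n + c)) (Fin (n + c)) F)ᵀ *ᵥ
            (v ∘ Sum.inr)) := by
      show (Matrix.fromBlocks (M : Matrix (Fin (n + c)) (Fin (n + c)) F) 0 0
        ((M⁻¹ : GL (Fin (n + c)) F) : Matrix (Fin (n + c)) (Fin (n + c)) F)ᵀ) *ᵥ v = _
      conv_lhs => rw [hv]
      rw [Matrix.fromBlocks_mulVec, hMval]
      simp
    have hmem : v ∈ fixSp ((hypGL M : GL (Fin (n + c) ⊕ Fin (n + c)) F) :
        Matrix (Fin (n + c) ⊕ Fin (n + c)) (Fin (n + c) ⊕ Fin (n + c)) F) ↔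
        ((hypGL M : GL (Fin (n + c) ⊕ Fin (n + c)) F) :
        Matrix (Fin (n + c) ⊕ Fin (n + c)) (Fin (n + c) ⊕ Fin (n + c)) F) *ᵥ v = v := by
      unfold fixSp
      rw [LinearMap.mem_ker, LinearMap.sub_apply, Matrix.toLin'_apply, Module.End.one_apply,
        sub_eq_zero]
    have hT : (((M⁻¹ : GL (Fin (n + c)) F) : Matrix (Fin (n + c)) (Fin (n + c)) F)ᵀ *ᵥ
        (v ∘ Sum.inr) = v ∘ Sum.inr) ↔ (Mmᵀ *ᵥ (v ∘ Sum.inr) = v ∘ Sum.inr) := by
      constructor
      · intro h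
        conv_lhs => rw [← h]
        rw [Matrix.mulVec_mulVec, ← Matrix.transpose_mul, hinv1, Matrix.transpose_one,
          Matrix.one_mulVec]
      · intro h
        conv_lhs => rw [← h]
        rw [Matrix.mulVec_mulVec, ← Matrix.transpose_mul, hinv2, Matrix.transpose_one,
          Matrix.one_mulVec]
    rw [hmem, hy]
    constructor
    · intro h
      have ha : Mm *ᵥ (v ∘ Sum.inl) = v ∘ Sum.inl := by
        funext a
        exact congrFun h (Sum.inl a)
      have hb : ((M⁻¹ : GL (Fin (n + c)) F) : Matrix (Fin (n + c)) (Fin (n + c)) F)ᵀ *ᵥ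
          (v ∘ Sum.inr) = v ∘ Sum.inr := by
        funext a
        exact congrFun h (Sum.inr a)
      have ha' := (fix_blk n c A hA2 (v ∘ Sum.inl)).1 ha
      have hb' := (fix_blk n c Aᵀ hAT (v ∘ Sum.inr)).1 (by rw [← hMT]; exact hT.1 hb)
      rw [LinearMap.mem_ker]
      funext s
      rcases s with a | a
      · exact ha' a
      · exact hb' a
    · intro h
      rw [LinearMap.mem_ker] at h
      have ha' : ∀ a : Fin n, (v ∘ Sum.inl) (Fin.castAdd c a) = 0 :=
        fun a => congrFun h (Sum.inl a)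
      have hb' : ∀ a : Fin n, (v ∘ Sum.inr) (Fin.castAdd c a) = 0 :=
        fun a => congrFun h (Sum.inr a)
      have ha := (fix_blk n c A hA2 (v ∘ Sum.inl)).2 ha'
      have hb := hT.2 (by rw [hMT]; exact (fix_blk n c Aᵀ hAT (v ∘ Sum.inr)).2 hb')
      rw [ha, hb]
      exact hv.symm
  have h1 := LinearMap.finrank_range_add_finrank_ker ρ
  rw [LinearMap.range_eq_top.2 hρsurj, finrank_top] at h1
  have h2 := LinearMap.finrank_range_add_finrank_ker
    (Matrix.toLin' ((hypGL M : GL (Fin (n + c) ⊕ Fin (n + c)) F) :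
      Matrix (Fin (n + c) ⊕ Fin (n + c)) (Fin (n + c) ⊕ Fin (n + c)) F) - 1)
  have h3 : finrank F (fixSp ((hypGL M : GL (Fin (n + c) ⊕ Fin (n + c)) F) :
      Matrix (Fin (n + c) ⊕ Fin (n + c)) (Fin (n + c) ⊕ Fin (n + c)) F)) =
      finrank F (LinearMap.ker ρ) := by rw [hfix]
  have h4 : finrank F (Fin (n + c) ⊕ Fin (n + c) → F) = 2 * (n + c) := by
    rw [Module.finrank_fintype_fun_eq_card, Fintype.card_sum, Fintype.card_fin]
    ring
  have h5 : finrank F (Fin n ⊕ Fin n → F) = 2 * n := by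
    rw [Module.finrank_fintype_fun_eq_card, Fintype.card_sum, Fintype.card_fin]
    ring
  unfold fixSp at h3
  unfold movSp
  omega

end Cfsg.Agent.Lib.Helper87.OTSP
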