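-- Team project OTSP (S5973, helper99), cut of [PAIRS], package [TITS] (helper87):
-- an invariant subspace of `movSp y` on which the polar form vanishes is totally singular
-- (all characteristics).
import Mathlib
import Cfsg.Agent.Lib.Helper99.OTSP.PairsDefs

set_option autoImplicit false
open scoped MatrixGroups
open Matrix

namespace Cfsg.Agent.Lib.Helper87.OTSP

open Cfsg.Agent.Lib.Helper23.OHyp Cfsg.Agent.Lib.Helper99.OTSP
open Module

universe u

/-- [TITS] from [SPLIT] (only `IsCompl (fixSp y) (movSp y)` is used). -/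
theorem pkgTiTs_of (hSp : Cfsg.Agent.Lib.Helper99.OTSP.PkgSplit.{u}) :
    Cfsg.Agent.Lib.Helper99.OTSP.PkgTiTs.{u} := by
  intro F _ _ ι _ _ Q r y hstd L hLN hInv hpol
  classical
  obtain ⟨-, hCompl, -, -, -, -⟩ := hSp F ι Q r y hstd
  have hyL : ∀ u ∈ L, y *ᵥ u ∈ L := by
    intro u hu
    have h1 : Matrix.toLin' y u ∈ L := hInv ⟨u, hu, rfl⟩
    rwa [Matrix.toLin'_apply] at h1
  have hDL : ∀ u ∈ L, (Matrix.toLin' y - 1) u ∈ L := by
    intro u hu
    rw [LinearMap.sub_apply, Module.End.one_apply, Matrix.toLin'_apply]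
    exact L.sub_mem (hyL u hu) hu
  let D : L →ₗ[F] L := (Matrix.toLin' y - 1).restrict hDL
  have hDinj : Function.Injective D := by
    rw [← LinearMap.ker_eq_bot, LinearMap.ker_eq_bot']
    intro u hu
    have h1 : (Matrix.toLin' y - 1) (u : ι → F) = 0 := congrArg Subtype.val hu
    have h2 : (u : ι → F) ∈ fixSp y ⊓ movSp y := ⟨h1, hLN u.2⟩
    rw [hCompl.inf_eq_bot] at h2
    exact Subtype.ext h2
  have hDsurj : Function.Surjective D := LinearMap.surjective_of_injective hDinj
  intro w hw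
  obtain ⟨u, hu⟩ := hDsurj ⟨w, hw⟩
  have hw' : w = y *ᵥ (u : ι → F) - u := by
    have h1 : (Matrix.toLin' y - 1) (u : ι → F) = w := congrArg Subtype.val hu
    rw [← h1, LinearMap.sub_apply, Matrix.toLin'_apply, Module.End.one_apply]
  have h1 : QuadraticMap.polar Q (y *ᵥ (u : ι → F) - u) u = 0 :=
    hpol _ (L.sub_mem (hyL u u.2) u.2) _ u.2
  unfold QuadraticMap.polar at h1
  rw [sub_add_cancel, hstd.isom] at h1
  rw [hw']
  linear_combination -h1

end Cfsg.Agent.Lib.Helper87.OTSP
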