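-- Team project OTSP (S5973, helper99), package [WCA] (helper87):
-- `V` of plus type, `V = C ⊥ N`, `N` of plus type: `C` has totally singular subspaces of every
-- dimension `e` with `2 e ≤ dim C` (all characteristics; no determinants).
import Mathlib
import Cfsg.Agent.Lib.Helper99.OTSP.Defs
import Cfsg.Agent.Lib.Helper87.OPar.UTools

set_option autoImplicit false
open scoped MatrixGroups
open Matrix

namespace Cfsg.Agent.Lib.Helper87.OTSP

open Cfsg.Agent.Lib.Helper23.OHyp Cfsg.Agent.Lib.Helper99.OTSP Cfsg.Agent.Lib.Helper87.OPar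
open Module

universe u

/-- Subspaces of every smaller dimension. -/
theorem exists_le_finrank_eq' {K : Type u} {V : Type*} [Field K] [AddCommGroup V] [Module K V]
    [FiniteDimensional K V] (U : Submodule K V) (k : ℕ) (hk : k ≤ finrank K U) :
    ∃ U' : Submodule K V, U' ≤ U ∧ finrank K U' = k := by
  obtain ⟨f, hf⟩ := exists_linearIndependent_of_le_finrank hk
  have hf' : LinearIndependent K (fun i => (f i : V)) :=
    hf.map' U.subtype (Submodule.ker_subtype U)
  refine ⟨Submodule.span K (Set.range fun i => (f i : V)), ?_, ?_⟩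
  · rw [Submodule.span_le]
    rintro _ ⟨i, rfl⟩
    exact (f i).2
  · rw [finrank_span_eq_card hf', Fintype.card_fin]

/-- [WCA] -/
theorem pkgWCa : PkgWCa.{u} := by
  intro F _ _ ι _ _ Q hQ hPlus C N hPerp hCN hPlusN e he
  classical
  let b : LinearMap.BilinForm F (ι → F) :=
    LinearMap.mk₂ F (QuadraticMap.polar Q) hQ.polar_bilinear.add_left
      (fun c m n => hQ.polar_bilinear.smul_left c m n) hQ.polar_bilinear.add_right
      (fun c m n => hQ.polar_bilinear.smul_right c m n)
  have hb : ∀ u v, b u v = QuadraticMap.polar Q u v := fun u v => rfl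
  have hkerb : LinearMap.ker b = ⊥ := by
    rw [LinearMap.ker_eq_bot']
    intro v hv
    by_contra hne
    obtain ⟨-, ⟨x, hx⟩⟩ := hQ.nondegenerate v hne
    apply hx
    have h := congrArg (fun f : (ι → F) →ₗ[F] F => f x) hv
    exact h
  have horth : ∀ X : Submodule F (ι → F),
      finrank F X + finrank F (b.orthogonal X) = finrank F (ι → F) :=
    fun X => finrank_add_orth b hkerb X
  obtain ⟨M₀, -, hM₀ts, hM₀dim⟩ := hPlus
  obtain ⟨L, hLN, hLts, hLdim⟩ := hPlusN
  rw [finrank_top] at hM₀dim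
  have hCNdim : finrank F C + finrank F N = finrank F (ι → F) :=
    Submodule.finrank_add_eq_of_isCompl hCN
  have hts_pol : ∀ (X : Submodule F (ι → F)), (∀ w ∈ X, Q w = 0) →
      ∀ u ∈ X, ∀ v ∈ X, b u v = 0 := by
    intro X hX u hu v hv
    rw [hb]
    unfold QuadraticMap.polar
    rw [hX _ (X.add_mem hu hv), hX u hu, hX v hv]
    ring
  -- (1) `(L ⊔ C)^⊥ = L`
  have hLCinf : L ⊓ C = ⊥ := by
    rw [eq_bot_iff]
    intro x hx
    have h1 : x ∈ C ⊓ N := ⟨hx.2, hLN hx.1⟩
    rw [hCN.inf_eq_bot] at h1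
    exact h1
  have hLC : L = b.orthogonal (L ⊔ C) := by
    apply Submodule.eq_of_le_of_finrank_eq
    · intro l hl x hx
      obtain ⟨l', hl', c, hc, rfl⟩ := Submodule.mem_sup.1 hx
      show b (l' + c) l = 0
      rw [map_add, LinearMap.add_apply, hts_pol L hLts l' hl' l hl, zero_add, hb]
      exact hPerp c hc l (hLN hl)
    · have h1 := horth (L ⊔ C)
      have h2 := Submodule.finrank_sup_add_finrank_inf_eq L C
      rw [hLCinf, finrank_bot, add_zero] at h2
      omega
  -- (2) `M₀^⊥ = M₀`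
  have hM₀orth : M₀ = b.orthogonal M₀ := by
    apply Submodule.eq_of_le_of_finrank_eq
    · intro m hm x hx
      exact hts_pol M₀ hM₀ts x hx m hm
    · have h1 := horth M₀
      omega
  -- (3) `W := (M₀ ⊔ L)^⊥`
  have hWM : b.orthogonal (M₀ ⊔ L) ≤ M₀ := by
    have h1 : b.orthogonal (M₀ ⊔ L) ≤ b.orthogonal M₀ :=
      LinearMap.BilinForm.orthogonal_le le_sup_left
    rw [← hM₀orth] at h1
    exact h1
  have hWL : b.orthogonal (M₀ ⊔ L) ≤ b.orthogonal L :=
    LinearMap.BilinForm.orthogonal_le le_sup_right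
  have hWdim : finrank F (M₀ ⊔ L : Submodule F (ι → F)) +
      finrank F (b.orthogonal (M₀ ⊔ L)) = finrank F (ι → F) := horth (M₀ ⊔ L)
  have hsup : finrank F (M₀ ⊔ L : Submodule F (ι → F)) +
      finrank F (M₀ ⊓ L : Submodule F (ι → F)) = finrank F M₀ + finrank F L :=
    Submodule.finrank_sup_add_finrank_inf_eq M₀ L
  -- (4) the projection onto `C` along `N`
  let P : (ι → F) →ₗ[F] C := Submodule.projectionOnto C N hCN
  let f : (ι → F) →ₗ[F] (ι → F) := C.subtype ∘ₗ P
  have hfC : ∀ w, f w ∈ C := fun w => (P w).2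
  have hkerf : LinearMap.ker f = N := by
    rw [LinearMap.ker_comp, Submodule.ker_subtype, Submodule.comap_bot]
    exact Submodule.ker_projectionOnto hCN
  have hA : finrank F ((b.orthogonal (M₀ ⊔ L)).map f) +
      finrank F (b.orthogonal (M₀ ⊔ L) ⊓ N : Submodule F (ι → F)) =
      finrank F (b.orthogonal (M₀ ⊔ L)) := by
    have h1 := finrank_map_add_inf_ker f (b.orthogonal (M₀ ⊔ L))
    rw [hkerf] at h1
    exact h1
  have hWN : b.orthogonal (M₀ ⊔ L) ⊓ N ≤ M₀ ⊓ L := by
    rintro w ⟨hwW, hwN⟩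
    refine ⟨hWM hwW, ?_⟩
    rw [hLC]
    intro x hx
    obtain ⟨l, hl, c, hc, rfl⟩ := Submodule.mem_sup.1 hx
    show b (l + c) w = 0
    rw [map_add, LinearMap.add_apply, hWL hwW l hl, zero_add, hb]
    exact hPerp c hc w hwN
  have hWN' : finrank F (b.orthogonal (M₀ ⊔ L) ⊓ N : Submodule F (ι → F)) ≤
      finrank F (M₀ ⊓ L : Submodule F (ι → F)) := Submodule.finrank_mono hWN
  have hUts : ∀ u ∈ (b.orthogonal (M₀ ⊔ L)).map f, Q u = 0 := by
    rintro _ ⟨w, hw, rfl⟩
    have hff : f (f w) = f w := by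
      have h5 : P ((P w : C) : ι → F) = P w := Submodule.projectionOnto_apply_left hCN (P w)
      exact congrArg Subtype.val h5
    have hn' : w - f w ∈ N := by
      rw [← hkerf, LinearMap.mem_ker, map_sub, hff, sub_self]
    have hnL : w - f w ∈ L := by
      rw [hLC]
      intro x hx
      obtain ⟨l, hl, c, hc', rfl⟩ := Submodule.mem_sup.1 hx
      show b (l + c) (w - f w) = 0
      rw [map_add, LinearMap.add_apply, map_sub, hWL hw l hl, zero_sub, hb, hb,
        QuadraticMap.polar_comm Q l (f w), hPerp (f w) (hfC w) l (hLN hl), neg_zero, zero_add]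
      exact hPerp c hc' _ hn'
    have h1 : QuadraticMap.polar Q (f w) (w - f w) = 0 := hPerp (f w) (hfC w) _ hn'
    unfold QuadraticMap.polar at h1
    rw [add_sub_cancel, hM₀ts w (hWM hw), hLts _ hnL] at h1
    linear_combination -h1
  have hdimU : e ≤ finrank F ((b.orthogonal (M₀ ⊔ L)).map f) := by
    omega
  obtain ⟨U, hU, hUdim⟩ := exists_le_finrank_eq' ((b.orthogonal (M₀ ⊔ L)).map f) e hdimU
  refine ⟨U, ?_, fun u hu => hUts u (hU hu), hUdim⟩
  intro u hu
  obtain ⟨w, -, rfl⟩ := hU hu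
  exact hfC w

end Cfsg.Agent.Lib.Helper87.OTSP
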