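-- Team project OTSP (S5973, helper99), package [PLUSQ] (helper87):
-- the form `Σ xᵢ yᵢ` is a nondegenerate quadratic form of plus type (all characteristics).
import Mathlib
import Cfsg.Agent.Lib.Helper99.OTSP.Defs
import Cfsg.Agent.Lib.Helper12.OHyp.EBlkOdd

set_option autoImplicit false
open scoped MatrixGroups
open Matrix

namespace Cfsg.Agent.Lib.Helper87.OTSP

open Cfsg.Agent.Lib.Helper23.OHyp Cfsg.Agent.Lib.Helper99.OTSP

universe u

/-- [PLUSQ] -/
theorem pkgPlusQ : PkgPlusQ.{u} := by
  intro F _ d
  refine ⟨Cfsg.Agent.Lib.Helper12.OHyp.nondeg_quadFormPlus d, ?_⟩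
  let f : (Fin d → F) →ₗ[F] (Fin d ⊕ Fin d → F) :=
    { toFun := fun a => Sum.elim a 0
      map_add' := by
        intro a b
        funext i
        rcases i with i | i <;> simp
      map_smul' := by
        intro c a
        funext i
        rcases i with i | i <;> simp }
  have hf : Function.Injective f := by
    intro a b hab
    funext i
    have := congrFun hab (Sum.inl i)
    simpa [f] using this
  show Cfsg.Geo.IsPlusTypeOn (Cfsg.quadFormPlus d F) ⊤
  refine ⟨LinearMap.range f, le_top, ?_, ?_⟩
  · rintro w ⟨a, rfl⟩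
    simp [Cfsg.quadFormPlus, f]
  · rw [LinearMap.finrank_range_of_inj hf, finrank_top, Module.finrank_fintype_fun_eq_card,
      Module.finrank_fintype_fun_eq_card, Fintype.card_sum, Fintype.card_fin]
    ring

end Cfsg.Agent.Lib.Helper87.OTSP
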